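import Cfsg.Agent.X9O.B1

/-! The axioms of the polar space at the base flag. -/

set_option autoImplicit false

universe u

namespace Cfsg.Lib.X9O

open Subgroup Cfsg.Lib.Local Cfsg.Lib.Solv Module Cfsg.Lib.Spor Cfsg.Lib.LX
open scoped Pointwise commutatorElement

variable {G : Type u} [Group G] {z s t : G} {V : Type*} [AddCommGroup V] [Module (ZMod 2) V]
  {S : Sh (qOf z) z V} {W : Fin 3 → Submodule (ZMod 2) V}

theorem nw_of_π {w y : G} (hw : NW z w) (hy : y ∈ qOf z) (e : S.π w = S.π y) : NW z y := by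
  rcases (S.π_eq_iff hw.mem hy).1 e with rfl | rfl
  exacts [hw, hw.comm ▸ hw.mul]

namespace Loc

variable (h : Loc S s t W)
include h

theorem fg_iff {L : Subgroup G} : Fg z (JJ S W 0) z L ↔ ∃ i, L = JJ S W i := by
  refine ⟨?_, ?_⟩
  · rintro ⟨g, e, rfl⟩
    have hg := mem_C.2 (mul_inv_eq_iff_eq_mul.1 e)
    obtain ⟨j, hj⟩ := h.perm g hg 0
    exact ⟨j, h.conjJ hg hj⟩
  · rintro ⟨i, rfl⟩
    obtain ⟨c, hc, e⟩ := h.exi i
    exact ⟨c, mul_inv_eq_iff_eq_mul.2 (mem_C.1 hc), h.conjJ hc e⟩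

theorem fg_mem {d : G} {K : Subgroup G} (k : Fg z (JJ S W 0) d K) : d ∈ K := by
  obtain ⟨g, rfl, rfl⟩ := k
  exact cj_mem (h.zJ 0)

theorem W_inj {i j : Fin 3} (e : W i ≤ W j) : i = j := by_contra fun n => by
  obtain ⟨v, hv, h0⟩ := h.exW i
  exact h0 (h.disj i j n v hv (e hv))

theorem ex_u : ∃ u ∈ S.E s, (∀ i, i ≠ 0 → ∃ v ∈ W i, v = u ∨ v = u + S.π s) ∧
    ∀ y ∈ qOf z, S.π y = u ∨ S.π y = u + S.π s → NW z y := by
  obtain ⟨c, hc, e1, e2⟩ := h.e1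
  have n := h.nw.conj' hc
  rw [S.ρ_π _ hc _ h.nw.mem] at e1 e2
  have e3 : S.ρ t (S.π (c * s * c⁻¹)) = S.π (c * s * c⁻¹) + S.π s := by
    rw [S.ρ_eq, (h.nw.N_E S h.tB e2).resolve_left fun k =>
      n.π_ne S (h.disj 1 0 (by decide) _ e1 ((h.ker _).2 k))]
  refine ⟨_, e2, fun i hi => ?_, fun y hy k => k.elim (fun k => nw_of_π n hy k.symm) fun k =>
    nw_of_π (S := S) (n.conj' h.tC) hy (by rw [← S.ρ_π _ h.tC _ n.mem, e3, k])⟩
  obtain rfl | rfl : i = 1 ∨ i = 2 := by omega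
  exacts [⟨_, e1, .inl rfl⟩, ⟨_, h.t12 ▸ Submodule.mem_map_of_mem e1, .inr e3⟩]

theorem nw_s {i : Fin 3} (hi : i ≠ 0) {y : G} (n : NW z y) (hs : y ∈ qOf s) (hy : S.π y ∈ W i) :
    NW s y := ⟨h.nw.ps, h.nw.cj.symm.trans n.cj, hs, fun e =>
  h.nw.π_ne S (h.disj i 0 hi _ (e ▸ hy) h.sb)⟩

variable [Finite V]

theorem J_inj {i j : Fin 3} (e : JJ S W i = JJ S W j) : i = j := h.W_inj fun v hv => by
  obtain ⟨x, hx, rfl⟩ := S.π_surj v
  exact (h.memP hx).1 (e.le (h.P_le i ⟨hx, hv⟩))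

theorem meet {i : Fin 3} (hi : i ≠ 0) {x : G} (h0 : x ∈ JJ S W 0) (h1 : x ∈ JJ S W i) :
    x = 1 ∨ x = z := by
  have k : x ∈ qOf z := (h.J_Q h0).resolve_right fun k => by
    obtain ⟨v, hv, n⟩ := h.exW i
    exact n (h.moves k hi hv (by rwa [J_fix h1 hv]))
  exact (S.π_eq_zero' k).1 (h.disj i 0 hi _ ((h.memP k).1 h1) ((h.memP k).1 h0))

theorem move {i : Fin 3} (hi : i ≠ 0) {a : G} (h0 : a ∈ JJ S W 0) (n : a ∉ qOf z) :
    MulAut.conj a • JJ S W i ≠ JJ S W i := fun e => by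
  obtain ⟨j, hj⟩ := h.perm a (J_le h0) i
  obtain rfl := h.J_inj (e.symm.trans (h.conjJ (J_le h0) hj))
  obtain ⟨v, hv, n'⟩ := h.exW i
  exact n' (h.moves ((h.J_Q h0).resolve_left n) hi hv (hj ▸ Submodule.mem_map_of_mem hv))

variable [Finite G]

theorem nwJ {i : Fin 3} {w : G} (n : NW z w) (hw : w ∈ JJ S W i) :
    Fg z (JJ S W 0) w (JJ S W i) := by
  obtain ⟨c, hc, rfl, e⟩ := h.orb n ((h.memP n.mem).1 hw)
  obtain ⟨g, h1, -, -, h2⟩ := h.exists_swap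
  exact ⟨c * g, by rw [← h1]; group, by rw [← cj_cj, h2, h.conjJ hc e]⟩

theorem of_nw {d w : G} {K : Subgroup G} (k : Fg z (JJ S W 0) d K) (n : NW d w) (hw : w ∈ K) :
    Fg z (JJ S W 0) w K := by
  obtain ⟨g, rfl, rfl⟩ := k
  exact Fg.cj_iff'.2 (h.nwJ (nw_cj n) ((mem_cj g).1 hw))

theorem cardJ : Nat.card (JJ S W 0) = 64 := by
  obtain ⟨τ, -, a, b⟩ := h.exists_τ
  have e := S.card_of_mem (U := S.pre' (W 0)) (fun _ hx => hx.1) (S.z_mem_pre' _)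
  rw [S.img_pre', h.dimW] at e
  rw [← ((S.pre' (W 0)).subgroupOf (JJ S W 0)).card_mul_index,
    Nat.card_congr (subgroupOfEquivOfLe (h.P_le 0)).toEquiv, e,
    index_eq_two_iff'.2 ⟨⟨τ, a⟩⁻¹, fun x => ?_⟩]
  · rfl
  by_cases k : (x : G) ∈ qOf z
  · exact .inr ⟨⟨k, (h.memP k).1 x.2⟩, fun m =>
      b (inv_mem_iff.1 ((Subgroup.mul_mem_cancel_right _ k).1 m.1))⟩
  · exact .inl ⟨h.J_cases a b x.2 k, fun m => k m.1⟩

theorem plane0 {L M : Subgroup G} (hL : Fg z (JJ S W 0) z L) (hM : Fg z (JJ S W 0) s M)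
    (nL : L ≠ JJ S W 0) (nM : M ≠ JJ S W 0) :
    ∃ x, NW z x ∧ NW s x ∧ Fg z (JJ S W 0) x L ∧ Fg z (JJ S W 0) x M := by
  obtain ⟨i, rfl⟩ := h.fg_iff.1 hL
  have hi : i ≠ 0 := by rintro rfl; exact nL rfl
  obtain ⟨g, h1, -, h3, h5⟩ := h.exists_swap
  obtain ⟨j, e⟩ := h.fg_iff.1 (Fg.cj_iff.1 (h1 ▸ hM))
  rw [cj_eq_iff] at e
  have hj : j ≠ 0 := by rintro rfl; exact nM (e.trans h5)
  obtain ⟨u, hu, k1, k2⟩ := h.ex_u
  obtain ⟨v, hv, f⟩ := k1 j hj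
  obtain ⟨x, hx, rfl⟩ := S.π_surj v
  obtain ⟨l1, l2, l3⟩ := h3 x hx ((h.nw.mem_E S hx).1 (by
    rcases f with f | f <;> rw [f]; exacts [hu, add_mem hu (h.nw.s_mem_E S)]))
  have k : g * x * g⁻¹ ∈ M := e ▸ cj_mem (h.P_le j ⟨hx, hv⟩)
  generalize g * x * g⁻¹ = y at l1 l2 l3 k
  obtain ⟨v, hv', f'⟩ := k1 i hi
  have a : ∀ y ∈ qOf z, y ∈ qOf s → y ∈ M → S.π y = v →
      ∃ x, NW z x ∧ NW s x ∧ Fg z (JJ S W 0) x (JJ S W i) ∧ Fg z (JJ S W 0) x M := by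
    rintro y l1 l2 k rfl
    have n := k2 y l1 f'
    have n' := h.nw_s hi n l2 hv'
    exact ⟨y, n, n', h.nwJ n (h.P_le i ⟨l1, hv'⟩), h.of_nw hM n' k⟩
  have b : S.π y = v ∨ S.π y + S.π s = v := by
    rcases f with f | f <;> rcases f' with f' | f' <;> rcases l3 with l | l <;>
      simp [l, f, f', add_add_cancel'']
  exact b.elim (a y l1 l2 k) fun b => a (y * s) (mul_mem l1 h.nw.mem) (mul_mem l2 h.nw.ps.mem)
    (mul_mem k (h.fg_mem hM)) (by rw [S.π_mul y l1 s h.nw.mem, b])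

theorem gen : closure {w | Fg z (JJ S W 0) w (JJ S W 0)} = JJ S W 0 := by
  refine le_antisymm ((closure_le _).2 fun w hw => h.fg_mem hw) fun x hx => ?_
  have a : S.pre' (W 0) ≤ closure {w | Fg z (JJ S W 0) w (JJ S W 0)} := fun x hx =>
    S.mem_of_π_mem_img (subset_closure (Fg.base _ _)) hx.1 (h.span.trans (Submodule.span_le.2 (by
      rintro _ ⟨hv, w, n, rfl⟩
      exact S.π_mem_img (subset_closure (h.nwJ n (h.P_le 0 ⟨n.mem, hv⟩))) n.mem)) hx.2)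
  by_cases k : x ∈ qOf z
  · exact a ⟨k, (h.memP k).1 hx⟩
  obtain ⟨τ, c, d, e⟩ := h.exists_τ
  simpa using mul_mem (Subgroup.subset_closure (show τ ∈ {w | Fg z (JJ S W 0) w (JJ S W 0)} from c))
    (a (h.J_cases d e hx k))

theorem faith {x : G} (hx : x ∈ JJ S W 0) (k : ∀ w, Fg z (JJ S W 0) w (JJ S W 0) → x ∈ qOf w) :
    x = 1 := by
  have xQ := k z (Fg.base _ _)
  have a : ∀ u, NW z u → S.π u ∈ W 1 → S.b (S.π u) (S.π x) = 0 := fun u n hu => by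
    obtain ⟨c, hc, rfl, e⟩ := h.orb n hu
    obtain ⟨j, hj⟩ := h.perm _ (inv_mem hc) 0
    have e' := map_ρ_inv (inv_mem hc) hj
    rw [inv_inv] at e'
    have j0 : j ≠ 0 := by
      rintro rfl
      exact absurd (h.W_inj (e.symm.trans e').le) (by decide)
    obtain ⟨u, hu, k1, k2⟩ := h.ex_u
    obtain ⟨v, hv, f⟩ := k1 j j0
    obtain ⟨y, hy, rfl⟩ := S.π_surj v
    have n1 := k2 y hy f
    have n2 := h.nw_s j0 n1 ((h.nw.mem_E S hy).1 (by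
      rcases f with f | f <;> rw [f]; exacts [hu, add_mem hu (h.nw.s_mem_E S)])) hv
    have n3 := n1.conj' hc
    exact (S.b_π _ n.mem _ xQ).2 (n3.E_comm n.mem (n2.conj c).zs xQ
      (k _ (h.nwJ n3 (h.P_le 0 (conjP hc e' ⟨hy, hv⟩)))))
  obtain ⟨c, hc, e⟩ := h.exi 1
  have b : S.π x ∈ W 1 := h.perpW 1 ▸ S.mem_perp.2 fun v hv => by
    obtain ⟨u, hu, rfl⟩ := e.ge hv
    refine (h.span.trans (Submodule.span_le.2 ?_ :
      _ ≤ LinearMap.ker ((S.b.flip (S.π x)).comp (S.ρ c)))) hu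
    rintro _ ⟨hv, w, n, rfl⟩
    have := a _ (n.conj' hc) (conjP hc e ⟨n.mem, hv⟩).2
    rwa [← S.ρ_π _ hc _ n.mem] at this
  refine ((S.π_eq_zero' xQ).1 (h.disj 1 0 (by decide) _ b ((h.memP xQ).1 hx))).resolve_right ?_
  rintro rfl
  obtain ⟨τ, c, -, e⟩ := h.exists_τ
  exact e (NW.zs ⟨S.pre.qOf_of_conj (isConj_iff.1 c.isConj), c.isConj.symm, k τ c,
    fun f => e (f ▸ xQ)⟩)

theorem geo : Geo z (centralizer (S.pre' (W 0) : Set G)) := At.geo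
  { pre := S.pre
    mem := h.zJ 0
    sq := fun _ => h.J_sq
    card := h.cardJ
    three := ⟨JJ S W 1, JJ S W 2, h.fg_iff.2 ⟨_, rfl⟩, h.fg_iff.2 ⟨_, rfl⟩,
      fun e => absurd (h.J_inj e) (by decide), fun e => absurd (h.J_inj e) (by decide),
      fun e => absurd (h.J_inj e) (by decide), fun F hF => by
        obtain ⟨i, rfl⟩ := h.fg_iff.1 hF
        obtain rfl | rfl | rfl : i = 0 ∨ i = 1 ∨ i = 2 := by omega
        exacts [.inl rfl, .inr (.inl rfl), .inr (.inr rfl)]⟩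
    meet := fun a n b c => by
      obtain ⟨i, rfl⟩ := h.fg_iff.1 a
      exact h.meet (by rintro rfl; exact n rfl) b c
    idx := fun a ha b hb na nb => h.mul ((h.J_Q ha).resolve_left na) ((h.J_Q hb).resolve_left nb)
    move := fun a n b c => by
      obtain ⟨i, rfl⟩ := h.fg_iff.1 a
      exact h.move (by rintro rfl; exact n rfl) b c
    norm := fun ha => h.conjJ (qOf_le z ha) (map_ρ_mem ha _)
    of_nw := h.nwJ
    plane := fun n hw hL hM nL nM => by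
      obtain ⟨c, hc, rfl, e⟩ := h.orb n ((h.memP n.mem).1 hw)
      have f := h.conjJ hc e
      obtain ⟨x, a1, a2, a3, a4⟩ := h.plane0 (hL.cj' (mem_C.1 (inv_mem hc))) (Fg.cj_iff.1 hM)
        (fun k => nL ((cj_eq_iff.1 k).trans f)) fun k => nM ((cj_eq_iff.1 k).trans f)
      exact ⟨_, a1.conj' hc, a2.conj c, Fg.cj_iff.2 a3, Fg.cj_iff.2 a4⟩
    line := fun n => by
      obtain ⟨c, hc, rfl⟩ := h.orbit n
      exact ⟨_, (Fg.base _ _).cj' (mem_C.1 hc), (h.nwJ h.nw (h.P_le 0 h.sP)).cj c⟩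
    ex_nw := ⟨s, h.P_le 0 h.sP, h.nw⟩
    ex_out := h.exists_τ.imp fun _ k => ⟨k.1, k.2.2⟩
    faith := fun _ => h.faith
    gen := h.gen }

end Loc

end Cfsg.Lib.X9O
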