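import Cfsg.Agent.X9O.Defs

/-! # The polar space axioms -/

set_option autoImplicit false

universe u

namespace Cfsg.Lib.X9O

open Subgroup Cfsg.Lib.Local Cfsg.Lib.Solv Module Cfsg.Lib.Spor Cfsg.Lib.LX
open scoped Pointwise commutatorElement

variable {G : Type u} [Group G] {z d a b c w x : G} {J K L M F : Subgroup G}

theorem At.comm (h : At z J d K) (ha : a ∈ K) (hb : b ∈ K) : a * b = b * a := by
  rw [← mul_eq_one_iff_eq_inv.1 (h.sq _ (mul_mem hb ha)) |>.symm, mul_inv_rev,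
    inv_eq_of_mul_eq_one_right (h.sq _ ha), inv_eq_of_mul_eq_one_right (h.sq _ hb)]

theorem cj_self (ha : a ∈ K) : MulAut.conj a • K = K := by
  ext x
  rw [mem_cj]
  exact ⟨fun k => by simpa [mul_assoc] using mul_mem (mul_mem ha k) (inv_mem ha),
    fun k => mul_mem (mul_mem (inv_mem ha) k) ha⟩

namespace Geo

variable (H : Geo z J)
include H

theorem mem (h : Fg z J d K) : d ∈ K := (H d K h).mem

theorem pre (h : Fg z J d K) : PreLX (qOf d) d := (H d K h).pre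

theorem comm (h : Fg z J d K) (ha : a ∈ K) (hb : b ∈ K) : a * b = b * a := (H d K h).comm ha hb

theorem uniq (h : Fg z J d K) (h' : Fg z J d L) (n : K ≠ L) (h1 : Fg z J x K) (h2 : x ∈ L) :
    x = d := ((H d K h).meet h' n (H.mem h1) h2).resolve_left (H.pre h1).ne_one

theorem other (h : Fg z J d K) : ∃ L, Fg z J d L ∧ L ≠ K := by
  obtain ⟨L, -, a, -, b, -⟩ := (H d K h).three
  exact ⟨L, a, b⟩

/-- The third point of a line. -/
theorem third_pt (h : Fg z J d K) (h' : Fg z J d L) (n : K ≠ L) :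
    ∃ M, Fg z J d M ∧ M ≠ K ∧ M ≠ L ∧ ∀ F, Fg z J d F → F = K ∨ F = L ∨ F = M := by
  obtain ⟨A, B, a, b, c, e, f, k⟩ := (H d K h).three
  rcases k L h' with rfl | rfl | rfl
  · exact (n rfl).elim
  · exact ⟨B, b, e, f.symm, k⟩
  · exact ⟨A, a, c, f, fun F hF => by have := k F hF; tauto⟩

theorem nw (h : Fg z J d K) (h' : Fg z J w L) (m : w ∈ qOf d) (n : w ≠ d) : NW d w :=
  ⟨H.pre h, h.isConj.symm.trans h'.isConj, m, n⟩

variable [Finite G]

theorem symm_mem (h : Fg z J d K) (h' : Fg z J w L) (m : w ∈ qOf d) : d ∈ qOf w := by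
  by_cases n : w = d
  · exact n ▸ m
  · exact (H.nw h h' m n).zs

omit [Finite G] in
theorem noncomm (h : Fg z J a K) (h' : Fg z J a L) (n : K ≠ L) (hb : b ∈ K) (hc : c ∈ L)
    (nb : b ∉ qOf a) (nc : c ∉ qOf a) : b * c ≠ c * b := fun e => by
  have := (H a L h').meet (h'.cj' (H.comm h hb (H.mem h))) ((H a K h).move h' n hb nb).symm hc (by
    simpa [e] using cj_mem (g := b) hc)
  rcases this with rfl | rfl
  exacts [nc (one_mem _), nc (H.pre h).mem]

omit [Finite G] in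
theorem tri (h : Fg z J a K) (h' : Fg z J a L) (k : Fg z J b K) (k' : Fg z J b M)
    (l : Cl z J L M) (n1 : K ≠ L) (n2 : K ≠ M) (n3 : L ≠ M) (n : b ≠ a) : NW a b := by
  obtain ⟨c, l, l'⟩ := l
  by_contra e
  have nb : b ∉ qOf a := fun m => e (H.nw h k m n)
  have nc : c ∈ qOf a := by
    by_contra nc
    exact H.noncomm h h' n1 (H.mem k) (H.mem l) nb nc (H.comm k' (H.mem k') (H.mem l'))
  obtain ⟨x, p, -, q, r⟩ := (H a L h').plane
    (H.nw h l nc fun e => n (H.uniq h (e ▸ l') n2 k (H.mem k'))) (H.mem l) h l' n1 n3.symm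
  exact e (H.uniq k k' n2 q (H.mem r) ▸ p)

omit [Finite G] in
theorem third (h : Fg z J d K) (h' : Fg z J d L) (h'' : Fg z J d M) (n : K ≠ L)
    (k : Cl z J F K) (k' : Cl z J F L) : Cl z J F M := by
  by_cases e : F = K
  · exact ⟨d, e ▸ h, h''⟩
  by_cases e' : F = L
  · exact ⟨d, e' ▸ h', h''⟩
  by_cases e'' : M = K
  · exact e'' ▸ k
  obtain ⟨a, p, q⟩ := k
  by_cases f : a = d
  · exact ⟨d, f ▸ p, h''⟩
  obtain ⟨x, -, -, r, s⟩ := (H d K h).plane
    (H.tri h h' q p k'.symm n (Ne.symm e) (Ne.symm e') f) (H.mem q) h'' p e'' e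
  exact ⟨x, s, r⟩

theorem trace1 (n : ¬ Cl z J K F) (h : Fg z J d K) (h' : Fg z J d L) (k : Cl z J L F)
    (hw : NW d w) (m : w ∈ K) : ∃ M, Fg z J w M ∧ Cl z J M F := by
  have nL : L ≠ K := fun e => n (e ▸ k)
  have hK := (H d K h).of_nw hw m
  obtain ⟨a, p, q⟩ := k
  have na : a ∉ qOf d := fun c => by
    obtain ⟨x, -, -, r, s⟩ := (H d L h').plane (H.nw h p c fun e => n ⟨d, h, e ▸ q⟩) (H.mem p) h q
      nL.symm fun e => n ⟨d, h, e ▸ h'⟩
    exact n ⟨x, r, s⟩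
  have key : ∀ {x M}, NW d x → Fg z J x L → Fg z J x M → Fg z J w M → x ∈ qOf a →
      ∃ M, Fg z J w M ∧ Cl z J M F := fun {x M} r s t u v => by
    obtain ⟨y, -, -, i, j⟩ := (H a L p).plane (H.nw p s v fun e => na (e ▸ r.mem)) (H.mem s) q t
      (fun e => n ⟨d, h, e ▸ h'⟩) fun e => hw.ne (H.uniq h h' nL.symm hK (e ▸ H.mem u))
    exact ⟨M, u, y, j, i⟩
  obtain ⟨M, hM, nM⟩ := H.other hK
  obtain ⟨x, r, -, s, t⟩ := (H d K h).plane hw m h' hM nL nM
  by_cases c : x ∈ qOf a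
  · exact key r s t hM c
  obtain ⟨g, ⟨g1, g2⟩, e⟩ := (H.pre h).exists_conj_centralizing (W := K ⊓ qOf d) inf_le_right
    ⟨H.mem h, (H.pre h).mem⟩ r.mem fun c =>
      r.ne (H.uniq h h' nL.symm ((H d K h).of_nw r c.1) (H.mem s))
  refine key r.mul ((H d L h').of_nw r.mul (mul_mem (H.mem h') (H.mem s))) (e ▸ t.cj g)
    (hM.cj' (g2 w ⟨m, hw.mem⟩).symm)
    ((H a L p).idx _ (H.mem h') _ (H.mem s) (fun c => na (H.symm_mem p h c)) c)

theorem trace (n : ¬ Cl z J K F) (k : Cl z J K L) (k' : Cl z J L F) (h : Fg z J w K) :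
    ∃ M, Fg z J w M ∧ Cl z J M F := by
  obtain ⟨d, p, q⟩ := k
  by_cases e : w = d
  · exact ⟨L, e ▸ q, k'⟩
  by_cases c : w ∈ qOf d
  · exact H.trace1 n p q k' (H.nw p h c e) (H.mem h)
  have key : ∀ {x}, NW d x → x ∈ K → x ∈ qOf w → ∃ M, Fg z J w M ∧ Cl z J M F := fun r s t => by
    obtain ⟨M, u, v⟩ := H.trace1 n p q k' r s
    exact H.trace1 n ((H d K p).of_nw r s) u v (H.nw h u t fun e => c (e ▸ r.mem)).symm (H.mem h)
  obtain ⟨a, a1, r⟩ := (H d K p).ex_nw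
  by_cases f : a ∈ qOf w
  · exact key r a1 f
  · exact key r.mul (mul_mem (H.mem p) a1)
      ((H w K h).idx _ (H.mem p) _ a1 (fun e => c (H.symm_mem h p e)) f)

theorem diam (hK : Pt J K) (c : Relation.ReflTransGen (Cl z J) K F) :
    ∃ L, Cl z J K L ∧ Cl z J L F := by
  induction c with
  | refl => exact ⟨K, hK.cl z, hK.cl z⟩
  | @tail F F' _ e ih =>
    obtain ⟨L, p, q⟩ := ih
    by_cases n : Cl z J F K
    · exact ⟨F, n.symm, e⟩
    obtain ⟨w, r, s⟩ := e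
    obtain ⟨M, u, v⟩ := H.trace n q.symm p.symm r
    exact ⟨M, v.symm, w, u, s⟩

theorem one (c : Conn z J) : One z J := fun d K F h hF => by
  by_cases n : Cl z J K F
  · exact ⟨K, h, n⟩
  have s : ∀ {A B}, Relation.ReflTransGen (Cl z J) A B → Relation.ReflTransGen (Cl z J) B A :=
    fun r => by
      induction r with
      | refl => exact .refl
      | tail _ e ih => exact .head e.symm ih
  obtain ⟨L, p, q⟩ := H.diam h.pt ((s (c K h.pt)).trans (c F hF))
  exact H.trace n p q h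

end Geo

end Cfsg.Lib.X9O
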