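import Cfsg.Agent.X9O.C

/-! # The linear representation of the polar space -/

set_option autoImplicit false

universe u

namespace Cfsg.Lib.X9O

open Subgroup Cfsg.Lib.Local Cfsg.Lib.Solv Module Cfsg.Lib.Spor Cfsg.Lib.LX
open scoped Pointwise commutatorElement

variable {G : Type u} [Group G]

theorem d1_aux {ι : Type} [Finite ι] [MulAction G ι] (r : ι → ι → Prop)
    (sy : ∀ i j, r i j → r j i) (inv : ∀ (g : G) i j, r (g • i) (g • j) ↔ r i j) :
    ∃ (V : Type) (_ : AddCommGroup V) (_ : Module (ZMod 2) V) (_ : Finite V) (f : ι → V)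
      (b : LinearMap.BilinForm (ZMod 2) V) (φ : G →* (V ≃ₗ[ZMod 2] V)),
      Submodule.span (ZMod 2) (Set.range f) = ⊤ ∧ (∀ i j, b (f i) (f j) = 0 ↔ r i j) ∧
      (∀ v, (∀ i, b (f i) v = 0) → v = 0) ∧ ∀ g i, φ g (f i) = f (g • i) := by
  classical
  let m : ι → ι → ZMod 2 := fun i j => if r i j then 0 else 1
  let B : (ι →₀ ZMod 2) →ₗ[ZMod 2] (ι →₀ ZMod 2) →ₗ[ZMod 2] ZMod 2 :=
    Finsupp.linearCombination (ZMod 2) fun i => Finsupp.linearCombination (ZMod 2) (m i)
  have hB : ∀ i j, B (Finsupp.single i 1) (Finsupp.single j 1) = m i j := fun i j => by simp [B]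
  have hf : B.flip = B := by
    ext i j
    simp only [LinearMap.coe_comp, Function.comp_apply, Finsupp.lsingle_apply, LinearMap.flip_apply,
      hB, m]
    exact if_congr ⟨sy _ _, sy _ _⟩ rfl rfl
  let ρ : Representation (ZMod 2) G (ι →₀ ZMod 2) :=
    { toFun := fun g => Finsupp.lmapDomain (ZMod 2) (ZMod 2) (g • ·)
      map_one' := by ext; simp
      map_mul' := fun a b => by ext; simp [mul_smul] }
  have h1 : ∀ g i, ρ g (Finsupp.single i 1) = Finsupp.single (g • i) 1 := fun g i => by simp [ρ]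
  have hρ : ∀ g, B.compl₁₂ (ρ g) (ρ g) = B := fun g => by
    ext i j
    simp only [LinearMap.coe_comp, Function.comp_apply, Finsupp.lsingle_apply,
      LinearMap.compl₁₂_apply, h1, hB, m]
    exact if_congr (inv g i j) rfl rfl
  have hρ' : ∀ g u v, B (ρ g u) (ρ g v) = B u v := fun g u v =>
    LinearMap.congr_fun₂ (hρ g) u v
  have le : ∀ g, LinearMap.ker B ≤ (LinearMap.ker B).comap (ρ g) := fun g u hu => by
    rw [Submodule.mem_comap, LinearMap.mem_ker]
    refine LinearMap.ext fun v => ?_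
    rw [← ρ.self_inv_apply g v, hρ', LinearMap.mem_ker.1 hu]; rfl
  haveI : Finite (ι →₀ ZMod 2) := Finite.of_equiv _ Finsupp.equivFunOnFinite.symm
  refine ⟨(ι →₀ ZMod 2) ⧸ LinearMap.ker B, inferInstance, inferInstance,
    Finite.of_surjective _ (Submodule.mkQ_surjective _),
    fun i => Submodule.Quotient.mk (Finsupp.single i 1),
    LinearMap.liftQ₂ _ _ B le_rfl (by rw [hf]),
    (LinearMap.GeneralLinearGroup.generalLinearEquiv _ _).toMonoidHom.comp
      (ρ.quotient _ le).asGroupHom, ?_, fun i j => ?_, fun v hv => ?_, fun g i => ?_⟩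
  · have := congrArg (Submodule.map (LinearMap.ker B).mkQ)
      (Finsupp.basisSingleOne (R := ZMod 2) (ι := ι)).span_eq
    rw [Submodule.map_span, Submodule.map_top, Submodule.range_mkQ, ← Set.range_comp] at this
    exact this
  · rw [LinearMap.liftQ₂_mk, hB]
    simp [m]
  · obtain ⟨v, rfl⟩ := Submodule.Quotient.mk_surjective _ v
    rw [Submodule.Quotient.mk_eq_zero, LinearMap.mem_ker, ← hf]
    ext i
    simpa [LinearMap.liftQ₂_mk] using hv i
  · change (ρ.quotient _ le) g _ = _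
    simp [h1]

theorem exists_vec [Finite G] (z : G) (J : Subgroup G) : ∃ (V : Type) (_ : AddCommGroup V)
    (_ : Module (ZMod 2) V) (_ : Finite V), Nonempty (Vec z J V) := by
  classical
  let X := {K : Subgroup G // Pt J K}
  let e : Fin (Nat.card X) ≃ X := (Finite.equivFin X).symm
  letI : MulAction G (Fin (Nat.card X)) :=
    { smul := fun g i => e.symm ⟨MulAut.conj g • (e i).1, (e i).2.cj g⟩
      one_smul := fun i => by
        change e.symm _ = _
        simp
      mul_smul := fun a b i => by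
        change e.symm _ = e.symm ⟨MulAut.conj a • (e (e.symm _)).1, _⟩
        simp [mul_smul] }
  have hs : ∀ (g : G) i, (e (g • i)).1 = MulAut.conj g • (e i).1 := fun g i => by
    change (e (e.symm _)).1 = _
    simp
  obtain ⟨V, i1, i2, i3, f, b, φ, h1, h2, h3, h4⟩ := d1_aux (G := G)
    (fun i j => Cl z J (e i).1 (e j).1) (fun _ _ => Cl.symm) fun g i j => by
      rw [hs, hs]
      exact ⟨fun h => by simpa using h.cj g⁻¹, fun h => h.cj g⟩
  let F : Subgroup G → V := fun K => if h : Pt J K then f (e.symm ⟨K, h⟩) else 0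
  have hF : ∀ {K} (h : Pt J K), F K = f (e.symm ⟨K, h⟩) := fun h => dif_pos h
  have hF' : ∀ i, F (e i).1 = f i := fun i => by rw [hF (e i).2]; simp
  refine ⟨V, i1, i2, i3, ⟨⟨F, b, φ, ?_, fun hK hL => ?_, fun v hv => h3 v fun i => ?_,
    fun g hK => ?_⟩⟩⟩
  · rw [eq_top_iff, ← h1]
    refine Submodule.span_mono ?_
    rintro _ ⟨i, rfl⟩
    exact ⟨_, (e i).2, hF' i⟩
  · rw [hF hK, hF hL, h2]; simp
  · rw [← hF']; exact hv _ (e i).2
  · rw [hF hK, h4, ← hF', hs]; simp

end Cfsg.Lib.X9O
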