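import Cfsg.Agent.X9O.D2
import Cfsg.Agent.Class.OrthEich
import Cfsg.Agent.Class.OrthExt
import Cfsg.Agent.Class.OrthMat
import Cfsg.Agent.Known.QuadNormal

/-! # The invariant quadratic form and the identification of the group -/

set_option autoImplicit false

universe u

namespace Cfsg.Lib.X9O

open Subgroup Cfsg.Lib.Local Cfsg.Lib.Solv Module Cfsg.Lib.Spor Cfsg.Lib.LX QuadraticMap
open scoped Pointwise commutatorElement

variable {G : Type u} [Group G] {z d a j k : G} {J K L M N F : Subgroup G}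
  {V : Type} [AddCommGroup V] [Module (ZMod 2) V]

theorem d3_form {A : Type*} [Group A] (b : LinearMap.BilinForm (ZMod 2) V) (p p' : V) (u : A → V)
    (ε : A → ZMod 2) (sy : ∀ v w, b v w = b w v) (alt : ∀ v, b v v = 0) (pp : b p p' = 1)
    (up : ∀ j, b (u j) p = 0) (up' : ∀ j, b (u j) p' = 0) (um : ∀ j k, u (j * k) = u j + u k)
    (em : ∀ j k, ε (j * k) = ε j + ε k + b (u j) (u k)) (inj : ∀ j, u j = 0 → j = 1)
    (sur : ∀ v, ∃ (α β : ZMod 2) (j : A), v = α • p + β • p' + u j) :
    Nat.card V = 4 * Nat.card A ∧ ∃ Q : QuadraticForm (ZMod 2) V, (∀ v w, polar Q v w = b v w) ∧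
      ∀ (α β : ZMod 2) j, Q (α • p + β • p' + u j) = α * β + ε j := by
  have u1 : u 1 = 0 := by simpa using um 1 1
  have e1 : ε 1 = 0 := by simpa [u1] using em 1 1
  have pp' : b p' p = 1 := by rw [sy, pp]
  let E : ZMod 2 × ZMod 2 × A → V := fun t => t.1 • p + t.2.1 • p' + u t.2.2
  have bij : Function.Bijective E := by
    refine ⟨?_, fun v => by obtain ⟨α, β, j, e⟩ := sur v; exact ⟨(α, β, j), e.symm⟩⟩
    rintro ⟨α, β, j⟩ ⟨α', β', j'⟩ e
    have h1 := congrArg (fun v => b v p') e
    have h2 := congrArg (fun v => b v p) e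
    simp only [E, map_add, map_smul, LinearMap.add_apply, LinearMap.smul_apply, pp, pp', alt, up,
      up', smul_eq_mul, mul_one, mul_zero, add_zero, zero_add] at h1 h2
    subst h1 h2
    have h3 : u j = u j' := add_left_cancel e
    have h4 : u j'⁻¹ = u j' := by
      have := um j'⁻¹ j'
      rw [inv_mul_cancel, u1] at this
      rw [v_eq (u := u j') (v := 0) (w := u j'⁻¹) (by rw [add_zero, add_comm, ← this]), add_zero]
    have := inj (j'⁻¹ * j) (by rw [um, h3, h4, add_self'])
    rw [inv_mul_eq_one.1 this]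
  let q : V → ZMod 2 := fun v =>
    ((Equiv.ofBijective E bij).symm v).1 * ((Equiv.ofBijective E bij).symm v).2.1 +
      ε ((Equiv.ofBijective E bij).symm v).2.2
  have hq : ∀ (α β : ZMod 2) j, q (α • p + β • p' + u j) = α * β + ε j := fun α β j => by
    have : (Equiv.ofBijective E bij).symm (α • p + β • p' + u j) = (α, β, j) :=
      (Equiv.ofBijective E bij).symm_apply_apply (α, β, j)
    simp only [q, this]
  have q0 : q 0 = 0 := by simpa [u1, e1] using hq 0 0 1
  have qa : ∀ v w, q (v + w) = q v + q w + b v w := fun v w => by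
    obtain ⟨α, β, j, rfl⟩ := sur v
    obtain ⟨α', β', j', rfl⟩ := sur w
    rw [show α • p + β • p' + u j + (α' • p + β' • p' + u j') =
      (α + α') • p + (β + β') • p' + u (j * j') by rw [um]; module, hq, hq, hq, em]
    simp only [map_add, map_smul, LinearMap.add_apply, LinearMap.smul_apply, pp, pp', alt, up,
      up', sy p (u _), sy p' (u _), smul_eq_mul]
    ring
  refine ⟨?_, ⟨q, fun a v => ?_, b, qa⟩, fun v w => ?_, hq⟩
  · rw [← Nat.card_congr (Equiv.ofBijective E bij), Nat.card_prod, Nat.card_prod, Nat.card_zmod]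
    ring
  · rcases z2_cases a with rfl | rfl <;> simp [q0]
  · change q (v + w) - q v - q w = _
    rw [qa]; ring

theorem pomega_of_eq {ι : Type} [Fintype ι] [DecidableEq ι] {P P' : (ι → ZMod 2) → ZMod 2}
    (h : P = P') (e : G ≃* POmega (ZMod 2) P) : Nonempty (G ≃* POmega (ZMod 2) P') := by
  subst h; exact ⟨e⟩

namespace Vec

variable (R : Vec z J V) (H : Geo z J) (g : R.Good)

theorem fix_p (hj : j ∈ J) : R.φ j (R.f J) = R.f J := by
  rw [R.φ_f j (Fg.base z J).pt, cj_self hj]

include H g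

theorem perp_act (hj : j ∈ J) : ∀ v, R.b v (R.f J) = 0 → ∃ c : ZMod 2, R.φ j v = v + c • R.f J := by
  have h := H z J (Fg.base z J)
  rw [← h.gen] at hj
  induction hj using closure_induction with
  | mem w hw =>
    intro v hv
    obtain ⟨M, hM, n⟩ := H.other hw
    exact ⟨_, by rw [g.act hw hM n.symm, hv, zero_smul, add_zero]⟩
  | one => exact fun v _ => ⟨0, by simp⟩
  | mul x y hx _ ix iy =>
    intro v hv
    obtain ⟨c, e⟩ := iy v hv
    obtain ⟨c', e'⟩ := ix v hv
    exact ⟨c' + c, by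
      rw [map_mul, LinearEquiv.mul_apply, e, map_add, map_smul, e', R.fix_p (h.gen ▸ hx), add_smul,
        add_assoc]⟩
  | inv x hx ix => rwa [inv_eq_of_mul_eq_one_right (h.sq x (h.gen ▸ hx))]

theorem exists_form : Nat.card V = 256 ∧ ∃ Q : QuadraticForm (ZMod 2) V,
    (∀ v w, polar Q v w = R.b v w) ∧ (∀ F, Pt J F → Q (R.f F) = 0) ∧
    ∀ v, R.b v (R.f J) = 1 → Q v = 0 → ∃ F, Pt J F ∧ R.f F = v := by
  have hJ := (Fg.base z J).pt
  obtain ⟨F₀, h₀, n₀⟩ := g.ex hJ
  have pp := R.b_one hJ h₀ n₀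
  have pp' := (R.symm _ _).trans pp
  generalize hp' : R.f F₀ = p' at pp pp'
  let δ : G → V := fun j => R.φ j p' + p'
  let ε : G → ZMod 2 := fun j => R.b p' (δ j)
  let u : G → V := fun j => δ j + ε j • R.f J
  have dp : ∀ {j}, j ∈ J → R.b (δ j) (R.f J) = 0 := fun {j} hj => by
    have := R.inv j p' (R.f J)
    rw [R.fix_p hj] at this
    simp only [δ, map_add, LinearMap.add_apply, this, pp']; rfl
  have φp : ∀ j, R.φ j p' = δ j + p' := fun j => by rw [add_assoc, add_self', add_zero]
  have act : ∀ {j}, j ∈ J → ∀ v, R.b v (R.f J) = 0 → R.φ j v = v + R.b v (δ j) • R.f J :=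
    fun {j} hj v hv => by
      obtain ⟨c, e⟩ := R.perp_act H g hj v hv
      have := R.inv j v p'
      rw [e, φp] at this
      simp only [map_add, map_smul, LinearMap.add_apply, LinearMap.smul_apply, pp,
        R.symm (R.f J) (δ j), dp hj, smul_eq_mul] at this
      rw [e, (by decide : ∀ x c y : ZMod 2, x + c * 0 + (y + c * 1) = y → c = x) _ _ _ this]
  have dm : ∀ {j k}, j ∈ J → k ∈ J → δ (j * k) = δ j + δ k + R.b (δ k) (δ j) • R.f J :=
    fun {j k} hj hk => by
      change R.φ (j * k) p' + p' = _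
      rw [map_mul, LinearEquiv.mul_apply, φp k, map_add, act hj _ (dp hk), add_assoc]
      change _ + δ j = _
      abel
  have uu : ∀ {j k}, j ∈ J → k ∈ J → R.b (u j) (u k) = R.b (δ k) (δ j) := fun {j k} hj hk => by
    simp only [u, map_add, map_smul, LinearMap.add_apply, LinearMap.smul_apply, dp hj,
      R.symm (R.f J) (δ k), dp hk, R.alt, smul_zero, add_zero, R.symm (δ j)]
  have em : ∀ {j k}, j ∈ J → k ∈ J → ε (j * k) = ε j + ε k + R.b (δ k) (δ j) := fun hj hk => by
    simp only [ε, dm hj hk, map_add, map_smul, pp', smul_eq_mul, mul_one]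
  have du : ∀ j, δ j = ε j • R.f J + u j := fun j => by
    rw [add_left_comm, add_self', add_zero]
  have u1 : u 1 = 0 := by simp [u, ε, δ, add_self']
  have e1 : ε 1 = 0 := by simp [ε, δ, add_self']
  have um : ∀ {j k}, j ∈ J → k ∈ J → u (j * k) = u j + u k := fun {j k} hj hk => by
    simp only [u, em hj hk, dm hj hk, add_smul]
    rw [← add_zero (δ j + ε j • R.f J + _), ← add_self' (R.b (δ k) (δ j) • R.f J)]
    abel
  have pt : ∀ F, Pt J F → ∃ (α β : ZMod 2) (j : J), R.f F = α • R.f J + β • p' + u j ∧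
      α * β + ε j = 0 := fun F hF => by
    by_cases c : Cl z J J F
    · by_cases e : J = F
      · exact ⟨1, 0, 1, by simp [u1, e], by simp [e1]⟩
      obtain ⟨w, r, s⟩ := c
      have e2 : δ w = R.f F + R.b p' (R.f F) • R.f J := by
        change R.φ w p' + p' = _
        rw [g.act r s e, pp', one_smul, add_comm, ← add_assoc, ← add_assoc, add_self', zero_add]
      have e3 : ε w = 0 := by
        simp only [ε, e2, map_add, map_smul, pp', smul_eq_mul, mul_one, add_self']
      refine ⟨R.b p' (R.f F), 0, ⟨w, H.mem r⟩, ?_, by simp [e3]⟩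
      simp only [u, e3, e2, zero_smul, add_zero]
      rw [add_left_comm, add_self', add_zero]
    · obtain ⟨j, hj, e⟩ := g.opp hJ h₀ hF n₀ c
      refine ⟨ε j, 1, ⟨j, hj⟩, ?_, by simp [add_self']⟩
      rw [← e, hp', φp, du, one_smul]; abel
  have sur : ∀ v, ∃ (α β : ZMod 2) (j : J), v = α • R.f J + β • p' + u j := fun v => by
    have hv : v ∈ Submodule.span (ZMod 2) (R.f '' {K | Pt J K}) := R.span ▸ Submodule.mem_top
    induction hv using Submodule.span_induction with
    | mem x hx =>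
      obtain ⟨K, hK, rfl⟩ := hx
      obtain ⟨α, β, j, e, -⟩ := pt K hK
      exact ⟨α, β, j, e⟩
    | zero => exact ⟨0, 0, 1, by simp [u1]⟩
    | add x y _ _ hx hy =>
      obtain ⟨α, β, j, rfl⟩ := hx
      obtain ⟨α', β', j', rfl⟩ := hy
      exact ⟨α + α', β + β', j * j', by rw [coe_mul, um j.2 j'.2]; module⟩
    | smul a x _ hx =>
      rcases z2_cases a with rfl | rfl
      · exact ⟨0, 0, 1, by simp [u1]⟩
      · rwa [one_smul]
  have up : ∀ j : J, R.b (u j) (R.f J) = 0 := fun j => by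
    simp only [u, map_add, map_smul, LinearMap.add_apply, LinearMap.smul_apply, dp j.2, R.alt,
      smul_zero, add_zero]
  obtain ⟨hc, Q, h1, h2⟩ := d3_form (A := J) R.b (R.f J) p' (fun j => u j) (fun j => ε j) R.symm
    R.alt pp up (fun j => by
      simp only [u, ε, map_add, map_smul, LinearMap.add_apply, LinearMap.smul_apply, pp,
        R.symm (δ j) p', smul_eq_mul, mul_one, add_self'])
    (fun j k => um j.2 k.2) (fun j k => by rw [uu j.2 k.2]; exact em j.2 k.2)
    (fun j e => Subtype.ext (g.faith hJ j.2 fun F c => by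
      have c' := (R.symm _ _).trans (R.b_zero c)
      rw [act j.2 _ c', du, e, add_zero, map_smul, c']; simp)) sur
  refine ⟨by rw [hc, (H z J (Fg.base z J)).card], Q, h1, fun F hF => ?_, fun v hv hQ => ?_⟩
  · obtain ⟨α, β, j, e, e'⟩ := pt F hF
    rw [e, h2, e']
  · obtain ⟨α, β, j, rfl⟩ := sur v
    simp only [map_add, map_smul, LinearMap.add_apply, LinearMap.smul_apply, pp', up, R.alt,
      smul_eq_mul, mul_one, mul_zero, add_zero, zero_add] at hv
    rw [h2, hv, mul_one] at hQ
    refine ⟨_, h₀.cj j, ?_⟩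
    rw [← R.φ_f _ h₀, hp', φp, du, hv, one_smul, 
      (by decide : ∀ a x : ZMod 2, a + x = 0 → a = x) _ _ hQ]
    abel

theorem exists_form' [Finite V] : ∃ Q : QuadraticForm (ZMod 2) V, finrank (ZMod 2) V = 8 ∧
    (∀ v w, polar Q v w = R.b v w) ∧ (∀ x v, Q (R.φ x v) = Q v) ∧
    ∀ v, v ≠ 0 → Q v = 0 → ∃ F, Pt J F ∧ R.f F = v := by
  obtain ⟨hc, Q, h1, h2, h3⟩ := R.exists_form H g
  have qa : ∀ v w, Q (v + w) = Q v + Q w + R.b v w := fun v w => by
    rw [← h1, polar]; ring
  have inv : ∀ x v, Q (R.φ x v) = Q v := fun x v => by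
    have hv : v ∈ Submodule.span (ZMod 2) (R.f '' {K | Pt J K}) := R.span ▸ Submodule.mem_top
    induction hv using Submodule.span_induction with
    | mem y hy =>
      obtain ⟨K, hK, rfl⟩ := hy
      rw [R.φ_f x hK, h2 _ hK, h2 _ (Pt.cj hK x)]
    | zero => simp
    | add a b _ _ ha hb => rw [map_add, qa, qa, ha, hb, R.inv]
    | smul a y _ hy => rw [map_smul, Q.map_smul, Q.map_smul, hy]
  refine ⟨Q, ?_, h1, inv, fun v hv hQ => ?_⟩
  · rw [Module.natCard_eq_pow_finrank (K := ZMod 2), Nat.card_zmod] at hc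
    exact Nat.pow_right_injective le_rfl (hc.trans (by norm_num))
  · obtain ⟨K, ⟨x, rfl⟩, e⟩ : ∃ K, Pt J K ∧ R.b (R.f K) v ≠ 0 := by
      by_contra! c
      exact hv (R.nondeg v c)
    have i : R.φ x (R.φ x⁻¹ v) = v := by rw [← LinearEquiv.mul_apply, ← map_mul]; simp
    obtain ⟨F, hF, e'⟩ := h3 (R.φ x⁻¹ v) (by
      rw [← R.inv x, i, R.φ_f x (Fg.base z J).pt, R.symm, z2_ne_zero.1 e]) (by rw [inv, hQ])
    exact ⟨_, hF.cj x, by rw [← R.φ_f x hF, e', i]⟩

open Cfsg.Lib.Class Cfsg.Lib.Class.Orth in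
theorem isO8 [Finite G] [IsSimpleGroup G] [Finite V] : IsO8 G := by
  obtain ⟨Q, hd, h1, h2, h3⟩ := R.exists_form' H g
  have hQ : (polarBilin Q).Nondegenerate := by
    refine ⟨fun v hv => R.nondeg v fun K _ => ?_, fun v hv => R.nondeg v fun K _ => ?_⟩
    · rw [R.symm, ← h1]; exact hv _
    · rw [← h1]; exact hv _
  let ψ : G →* O Q := R.φ.codRestrict (O Q) fun x => mem_O.2 (h2 x)
  have hz := Fg.base z J
  have inj : Function.Injective ψ := by
    rw [← MonoidHom.ker_eq_bot_iff]
    refine (IsSimpleGroup.eq_bot_or_eq_top_of_normal ψ.ker inferInstance).resolve_right fun e => ?_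
    refine (H.pre hz).ne_one (g.faith hz.pt (H.mem hz) fun F _ => ?_)
    have : ψ z = 1 := by rw [← MonoidHom.mem_ker, e]; trivial
    exact congrArg (fun x : O Q => x.1 (R.f F)) this
  have le1 : commutator (O Q) ≤ ψ.range := commutator_le_of_siegel hQ (by omega)
    fun u v li hu hv huv => by
      obtain ⟨K, hK, rfl⟩ := h3 u (li.ne_zero 0) hu
      obtain ⟨M, hM, rfl⟩ := h3 v (li.ne_zero 1) hv
      obtain ⟨d, p, q⟩ := (R.b_f hK hM).1 (h1 _ _ ▸ huv)
      refine ⟨d, O_ext fun x => ?_⟩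
      rw [eich_apply hu huv, hv, h1, h1, zero_mul, sub_zero, sub_eq_add_neg, ← neg_smul,
        ZMod.neg_eq_self_mod_two]
      exact g.act q p (fun e => by simpa [e] using li.injective.ne (show (0 : Fin 2) ≠ 1 by decide)) x
  have nc : center G = ⊥ := by
    refine (IsSimpleGroup.eq_bot_or_eq_top_of_normal _ inferInstance).resolve_right fun e => ?_
    obtain ⟨w, -, hw⟩ := (H z J hz).ex_nw
    obtain ⟨x, -, e'⟩ := hw.exists_x
    have : x ∈ center G := e ▸ mem_top x
    rw [← mem_center_iff.1 this w, mul_inv_cancel_right, right_eq_mul] at e'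
    exact (H.pre hz).ne_one e'
  have pf : commutator G = ⊤ := by
    refine (IsSimpleGroup.eq_bot_or_eq_top_of_normal _ inferInstance).resolve_left fun e => ?_
    rw [commutator_eq_bot_iff_center_eq_top, nc] at e
    exact bot_ne_top e
  have le2 : ψ.range ≤ commutator (O Q) := by
    rw [MonoidHom.range_eq_map, ← pf, map_commutator_eq]
    exact commutator_mono le_top le_top
  let e : G ≃* commutator (O Q) :=
    (MonoidHom.ofInjective inj).trans (MulEquiv.subgroupCongr (le_antisymm le2 le1))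
  let e' : G ≃* commutator (O Q) ⧸ center (commutator (O Q)) :=
    (QuotientGroup.quotientBot.symm.trans (QuotientGroup.quotientMulEquivOfEq nc.symm)).trans
      (centerQuotCongr e)
  by_cases c : Known.IsPlus Q
  · obtain ⟨f, hf⟩ := Known.exists_equiv_plus hQ (m := 4) hd c
    exact Or.inl ⟨e'.trans ((centerQuotCongr (commutatorCongr (OCongr (Q := quadPlus 4 (ZMod 2)) f
      one_ne_zero fun v => by rw [one_mul]; exact hf v))).symm.trans
        (pomegaEquiv (quadPlus 4 (ZMod 2))).symm)⟩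
  · have an : Known.Aniso (1 : ZMod 2) 1 := by decide
    obtain ⟨f, hf⟩ := Known.exists_equiv_minus hQ (m := 3) hd c an
    exact Or.inr ⟨1, 1, an, pomega_of_eq (coe_quadMinus 3 1 1) (e'.trans ((centerQuotCongr
      (commutatorCongr (OCongr (Q := quadMinus 3 (ZMod 2) 1 1) f one_ne_zero
        fun v => by rw [one_mul, hf, coe_quadMinus]))).symm.trans
          (pomegaEquiv (quadMinus 3 (ZMod 2) 1 1)).symm))⟩

end Vec

end Cfsg.Lib.X9O
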